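import Cfsg.Agent.S1465
import Cfsg.Agent.S1466
import Cfsg.Agent.S1467
import Cfsg.Agent.ZJ.J
import Cfsg.Agent.Transfer.Frobenius
import Cfsg.Agent.PCore.PConstrained

/-!
The Puig subgroups of a Sylow subgroup and of `O_p`, inside the group.
-/

set_option autoImplicit false
set_option linter.style.haveILetI false

namespace CfsgLib.PuigCore

universe u

section step

variable {G : Type u} [Group G]

/-- The Puig step inside `S`. -/
def stepIn (S Y : Subgroup G) : Subgroup G :=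
  sSup {A : Subgroup G | A ≤ S ∧ IsMulCommutative A ∧ Y ≤ Subgroup.normalizer (A : Set G)}

/-- The Puig series of `S` inside the group. -/
def seqIn (S : Subgroup G) (n : ℕ) : Subgroup G := (Cfsg.puigSeq ↥S n).map S.subtype

/-- `L_*(S)` inside the group. -/
def lowIn (S : Subgroup G) : Subgroup G := (Cfsg.puigLower ↥S).map S.subtype

/-- `L(S)` inside the group. -/
def upIn (S : Subgroup G) : Subgroup G := (Cfsg.puigSubgroup ↥S).map S.subtype

theorem stepIn_le (S Y : Subgroup G) : stepIn S Y ≤ S := sSup_le fun _ hA => hA.1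

theorem stepIn_anti {S Y Y' : Subgroup G} (h : Y ≤ Y') : stepIn S Y' ≤ stepIn S Y :=
  sSup_le fun _ hA => le_sSup (show _ ∈ {A | _} from ⟨hA.1, hA.2.1, h.trans hA.2.2⟩)

theorem le_stepIn {S Y A : Subgroup G} (h1 : A ≤ S) (h2 : IsMulCommutative A)
    (h3 : Y ≤ Subgroup.normalizer (A : Set G)) : A ≤ stepIn S Y := le_sSup ⟨h1, h2, h3⟩

theorem puigStep_map (S : Subgroup G) (Y : Subgroup ↥S) :
    (Cfsg.puigStep Y).map S.subtype = stepIn S (Y.map S.subtype) := by
  apply le_antisymm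
  · rw [Subgroup.map_le_iff_le_comap]
    refine sSup_le fun A hA => ?_
    rw [← Subgroup.map_le_iff_le_comap]
    haveI := hA.1
    exact le_stepIn (Subgroup.map_subtype_le A) inferInstance
      ((Subgroup.map_mono hA.2).trans (Subgroup.le_normalizer_map S.subtype))
  · refine sSup_le fun A hA => ?_
    have h1 : (A.subgroupOf S).map S.subtype = A := Subgroup.map_subgroupOf_eq_of_le hA.1
    rw [← h1]
    refine Subgroup.map_mono (le_sSup ⟨?_, fun y hy => ?_⟩)
    · refine ⟨⟨fun a b => Subtype.ext (Subtype.ext ?_)⟩⟩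
      exact (congrArg Subtype.val (hA.2.1.is_comm.comm (⟨((a : S) : G), a.2⟩ : A) ⟨((b : S) : G), b.2⟩) :)
    · refine Subgroup.mem_normalizer_iff.2 fun a => ?_
      exact Subgroup.mem_normalizer_iff.1 (hA.2.2 ⟨y, hy, rfl⟩) a

theorem seqIn_zero (S : Subgroup G) : seqIn S 0 = ⊥ := Subgroup.map_bot _

theorem seqIn_succ (S : Subgroup G) (n : ℕ) : seqIn S (n + 1) = stepIn S (seqIn S n) := puigStep_map S _

theorem seqIn_le (S : Subgroup G) (n : ℕ) : seqIn S n ≤ S := Subgroup.map_subtype_le _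

theorem upIn_le (S : Subgroup G) : upIn S ≤ S := Subgroup.map_subtype_le _

variable [Finite G]

theorem lowIn_le_upIn (S : Subgroup G) : lowIn S ≤ upIn S :=
  Subgroup.map_mono (Cfsg.Agent.S1467.result (G := ↥S)).2.2.2.2.1

theorem stepIn_lowIn (S : Subgroup G) : stepIn S (lowIn S) = upIn S :=
  (puigStep_map S _).symm.trans (congrArg _ (Cfsg.Agent.S1467.result (G := ↥S)).2.2.2.2.2.1)

theorem stepIn_upIn (S : Subgroup G) : stepIn S (upIn S) = lowIn S :=
  (puigStep_map S _).symm.trans (congrArg _ (Cfsg.Agent.S1467.result (G := ↥S)).2.2.2.2.2.2)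

theorem seqIn_even_le_lowIn (S : Subgroup G) (n : ℕ) : seqIn S (2 * n) ≤ lowIn S :=
  Subgroup.map_mono (le_iSup (fun n => Cfsg.puigSeq ↥S (2 * n)) n)

theorem upIn_le_seqIn_odd (S : Subgroup G) (n : ℕ) : upIn S ≤ seqIn S (2 * n + 1) :=
  Subgroup.map_mono (iInf_le (fun n => Cfsg.puigSeq ↥S (2 * n + 1)) n)

theorem exists_seqIn_eq (S : Subgroup G) :
    ∃ k, seqIn S (2 * k) = lowIn S ∧ seqIn S (2 * k + 1) = upIn S := by
  obtain ⟨k, hk⟩ := (Cfsg.Agent.S1467.result (G := ↥S)).2.2.2.1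
  exact ⟨k, congrArg _ (hk k le_rfl).1, congrArg _ (hk k le_rfl).2⟩

theorem lowIn_le_of {S Y : Subgroup G} (h : ∀ n, seqIn S (2 * n) ≤ Y) : lowIn S ≤ Y := by
  obtain ⟨k, hk, -⟩ := exists_seqIn_eq S
  exact hk ▸ h k

/-- The Puig subgroups of an intermediate group. -/
theorem eq_of_upIn_le {S X : Subgroup G} (hL : upIn S ≤ X) (hXS : X ≤ S) :
    lowIn X = lowIn S ∧ upIn X = upIn S := by
  have h1 : ∀ n, seqIn S (2 * n) ≤ seqIn X (2 * n) := by
    intro n
    induction n with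
    | zero => rw [mul_zero, seqIn_zero]; exact bot_le
    | succ n ih =>
      have h2 : seqIn X (2 * n + 1) ≤ seqIn S (2 * n + 1) := by
        rw [seqIn_succ, seqIn_succ]
        exact sSup_le fun A hA => le_stepIn (hA.1.trans hXS) hA.2.1 (ih.trans hA.2.2)
      rw [show 2 * (n + 1) = 2 * n + 1 + 1 from rfl, seqIn_succ S, seqIn_succ X]
      refine sSup_le fun A hA => le_stepIn ?_ hA.2.1 (h2.trans hA.2.2)
      have h3 : A ≤ seqIn S (2 * (n + 1)) := by
        rw [show 2 * (n + 1) = 2 * n + 1 + 1 from rfl, seqIn_succ S]; exact le_sSup hA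
      exact h3.trans ((seqIn_even_le_lowIn S _).trans ((lowIn_le_upIn S).trans hL))
  have hstep : stepIn X (lowIn S) = upIn S := by
    refine le_antisymm (stepIn_lowIn S ▸ sSup_le fun A hA => le_stepIn (hA.1.trans hXS) hA.2.1 hA.2.2) ?_
    rw [← stepIn_lowIn S]
    refine sSup_le fun A hA => le_stepIn ?_ hA.2.1 hA.2.2
    exact (le_sSup hA).trans ((stepIn_lowIn S).trans_le hL)
  have h2 : ∀ n, seqIn X (2 * n) ≤ lowIn S := by
    intro n
    induction n with
    | zero => rw [mul_zero, seqIn_zero]; exact bot_le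
    | succ n ih =>
      have h3 : upIn S ≤ seqIn X (2 * n + 1) := by
        rw [seqIn_succ, ← hstep]; exact stepIn_anti ih
      rw [show 2 * (n + 1) = 2 * n + 1 + 1 from rfl, seqIn_succ X, ← stepIn_upIn S]
      exact sSup_le fun A hA => le_stepIn (hA.1.trans hXS) hA.2.1 (h3.trans hA.2.2)
  have hlow : lowIn X = lowIn S :=
    le_antisymm (lowIn_le_of h2) (lowIn_le_of fun n => (h1 n).trans (seqIn_even_le_lowIn X n))
  exact ⟨hlow, by rw [← stepIn_lowIn X, hlow, hstep]⟩

end step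

section maps

variable {G H : Type u} [Group G] [Group H]

theorem stepIn_map (f : G →* H) {S Y : Subgroup G} (hf : ∀ x ∈ S, f x = 1 → x = 1) (hY : Y ≤ S) :
    stepIn (S.map f) (Y.map f) = (stepIn S Y).map f := by
  apply le_antisymm
  · refine sSup_le fun B hB => ?_
    obtain ⟨A, hAS, rfl⟩ := CfsgLib.ZJ.exists_map_eq f hB.1
    set A' := (A.map f).comap f ⊓ S
    have hA' : A'.map f = A.map f := le_antisymm
      ((Subgroup.map_mono inf_le_left).trans (Subgroup.map_comap_le _ _))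
      (Subgroup.map_mono (le_inf (Subgroup.le_comap_map f A) hAS))
    rw [← hA']
    refine Subgroup.map_mono (le_stepIn inf_le_right ⟨⟨fun a b => Subtype.ext ?_⟩⟩ fun y hy => ?_)
    · have h1 : f (a : G) * f (b : G) = f (b : G) * f (a : G) :=
        congrArg Subtype.val (hB.2.1.is_comm.comm (⟨f a, a.2.1⟩ : A.map f) ⟨f b, b.2.1⟩)
      have hmem := S.mul_mem (S.inv_mem (S.mul_mem a.2.2 b.2.2)) (S.mul_mem b.2.2 a.2.2)
      have h2 := inv_mul_eq_one.1 (hf _ hmem (by rw [map_mul, map_inv, map_mul, map_mul, h1, inv_mul_cancel]))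
      exact h2
    · have hn := hB.2.2 ⟨y, hy, rfl⟩
      refine Subgroup.mem_normalizer_iff.2 fun a => ?_
      show (f a ∈ A.map f ∧ a ∈ S) ↔ (f (y * a * y⁻¹) ∈ A.map f ∧ y * a * y⁻¹ ∈ S)
      rw [map_mul, map_mul, map_inv, ← Subgroup.mem_normalizer_iff.1 hn (f a)]
      exact and_congr_right fun _ => Subgroup.mem_normalizer_iff.1 (Subgroup.le_normalizer (hY hy)) a
  · rw [Subgroup.map_le_iff_le_comap]
    refine sSup_le fun A hA => ?_
    rw [← Subgroup.map_le_iff_le_comap]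
    haveI := hA.2.1
    exact le_stepIn (Subgroup.map_mono hA.1) inferInstance
      ((Subgroup.map_mono hA.2.2).trans (Subgroup.le_normalizer_map f))

theorem seqIn_map (f : G →* H) {S : Subgroup G} (hf : ∀ x ∈ S, f x = 1 → x = 1) (n : ℕ) :
    seqIn (S.map f) n = (seqIn S n).map f := by
  induction n with
  | zero => rw [seqIn_zero, seqIn_zero, Subgroup.map_bot]
  | succ n ih => rw [seqIn_succ, seqIn_succ, ih, stepIn_map f hf (seqIn_le S n)]

theorem upIn_map [Finite G] [Finite H] (f : G →* H) {S : Subgroup G} (hf : ∀ x ∈ S, f x = 1 → x = 1) :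
    upIn (S.map f) = (upIn S).map f := by
  obtain ⟨k, -, hk⟩ := exists_seqIn_eq S
  obtain ⟨k', -, hk'⟩ := exists_seqIn_eq (S.map f)
  refine le_antisymm ?_ ?_
  · calc upIn (S.map f) ≤ seqIn (S.map f) (2 * k + 1) := upIn_le_seqIn_odd _ k
      _ = (upIn S).map f := by rw [seqIn_map f hf, hk]
  · calc (upIn S).map f ≤ (seqIn S (2 * k' + 1)).map f := Subgroup.map_mono (upIn_le_seqIn_odd _ k')
      _ = upIn (S.map f) := by rw [← seqIn_map f hf, hk']

/-- `Z(L(S))` inside the group. -/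
def centerUp (S : Subgroup G) : Subgroup G := upIn S ⊓ Subgroup.centralizer (upIn S : Set G)

theorem centerUp_eq (S : Subgroup G) : centerUp S =
    ((Subgroup.center ↥(Cfsg.puigSubgroup ↥S)).map (Cfsg.puigSubgroup ↥S).subtype).map S.subtype := by
  ext x
  constructor
  · rintro ⟨⟨y, hy, rfl⟩, hc⟩
    refine ⟨y, ⟨⟨y, hy⟩, Subgroup.mem_center_iff.2 fun g => Subtype.ext (Subtype.ext ?_), rfl⟩, rfl⟩
    exact Subgroup.mem_centralizer_iff.1 hc _ ⟨g, g.2, rfl⟩
  · rintro ⟨_, ⟨y, hy, rfl⟩, rfl⟩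
    refine ⟨⟨y, y.2, rfl⟩, Subgroup.mem_centralizer_iff.2 ?_⟩
    rintro _ ⟨g, hg, rfl⟩
    exact congrArg (fun t : Cfsg.puigSubgroup ↥S => ((t : S) : G)) (Subgroup.mem_center_iff.1 hy ⟨g, hg⟩)

theorem centerUp_map [Finite G] [Finite H] (f : G →* H) {S : Subgroup G} (hf : ∀ x ∈ S, f x = 1 → x = 1) :
    centerUp (S.map f) = (centerUp S).map f := by
  ext y
  rw [centerUp, centerUp, Subgroup.mem_inf, upIn_map f hf]
  constructor
  · rintro ⟨⟨x, hx, rfl⟩, hc⟩
    refine ⟨x, ⟨hx, Subgroup.mem_centralizer_iff.2 fun h hh => ?_⟩, rfl⟩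
    have h1 := Subgroup.mem_centralizer_iff.1 hc (f h) (Subgroup.mem_map_of_mem f hh)
    have hmem := S.mul_mem (S.inv_mem (S.mul_mem (upIn_le S hx) (upIn_le S hh)))
      (S.mul_mem (upIn_le S hh) (upIn_le S hx))
    exact (inv_mul_eq_one.1 (hf _ hmem (by rw [map_mul, map_inv, map_mul, map_mul, h1, inv_mul_cancel]))).symm
  · rintro ⟨x, ⟨hx, hc⟩, rfl⟩
    refine ⟨Subgroup.mem_map_of_mem f hx, Subgroup.mem_centralizer_iff.2 ?_⟩
    rintro _ ⟨h, hh, rfl⟩
    rw [← map_mul, ← map_mul, Subgroup.mem_centralizer_iff.1 hc h hh]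

theorem normalizer_le_upIn [Finite G] (S : Subgroup G) :
    Subgroup.normalizer (S : Set G) ≤ Subgroup.normalizer (upIn S : Set G) := by
  intro g hg
  rw [Subgroup.mem_normalizer_iff_map_conj_eq] at hg ⊢
  have h := upIn_map (MulAut.conj g).toMonoidHom (S := S)
    (fun x _ hx => (MulAut.conj g).injective (hx.trans (map_one (MulAut.conj g)).symm))
  exact h.symm.trans (congrArg upIn hg)

theorem normalizer_le_centerUp [Finite G] (S : Subgroup G) :
    Subgroup.normalizer (S : Set G) ≤ Subgroup.normalizer (centerUp S : Set G) := by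
  intro g hg
  rw [Subgroup.mem_normalizer_iff_map_conj_eq] at hg ⊢
  have h := centerUp_map (MulAut.conj g).toMonoidHom (S := S)
    (fun x _ hx => (MulAut.conj g).injective (hx.trans (map_one (MulAut.conj g)).symm))
  exact h.symm.trans (congrArg centerUp hg)

theorem seqIn_normal [Finite G] (T : Subgroup G) [T.Normal] (n : ℕ) : (seqIn T n).Normal := by
  refine ⟨fun x hx g => ?_⟩
  have h := seqIn_map (MulAut.conj g).toMonoidHom (S := T)
    (fun x _ hx => (MulAut.conj g).injective (hx.trans (map_one (MulAut.conj g)).symm)) n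
  have e : T.map (MulAut.conj g).toMonoidHom = T :=
    Subgroup.mem_normalizer_iff_map_conj_eq.1 ((Subgroup.normalizer_eq_top (H := T)).ge (Subgroup.mem_top g))
  rw [e] at h
  exact h.ge ⟨x, hx, rfl⟩

end maps

section main

variable {G : Type u} [Group G] [Finite G] {p : ℕ} [hp : Fact p.Prime]

theorem inf_centralizer_seqIn_le {T : Subgroup G} (hT : IsPGroup p T) {i : ℕ} (hi : 0 < i) :
    T ⊓ Subgroup.centralizer (seqIn T i : Set G) ≤ seqIn T i := by
  rintro x ⟨hxT, hxc⟩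
  rcases subsingleton_or_nontrivial ↥T with h | h
  · rw [show x = 1 from congrArg Subtype.val (Subsingleton.elim (⟨x, hxT⟩ : T) 1)]
    exact one_mem _
  exact ⟨⟨x, hxT⟩, ((Cfsg.Agent.S1466.result p hT).1 i hi).2 (Subgroup.mem_centralizer_iff.2 fun y hy =>
    Subtype.ext (Subgroup.mem_centralizer_iff.1 hxc _ ⟨y, hy, rfl⟩)), rfl⟩

theorem inf_centralizer_lowIn_le {T : Subgroup G} (hT : IsPGroup p T) :
    T ⊓ Subgroup.centralizer (lowIn T : Set G) ≤ lowIn T := by
  rintro x ⟨hxT, hxc⟩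
  rcases subsingleton_or_nontrivial ↥T with h | h
  · rw [show x = 1 from congrArg Subtype.val (Subsingleton.elim (⟨x, hxT⟩ : T) 1)]
    exact one_mem _
  exact ⟨⟨x, hxT⟩, ((Cfsg.Agent.S1466.result p hT).2.1).2 (Subgroup.mem_centralizer_iff.2 fun y hy =>
    Subtype.ext (Subgroup.mem_centralizer_iff.1 hxc _ ⟨y, hy, rfl⟩)), rfl⟩

variable [Group.IsSolvable G]

theorem puig_chain (hodd : Odd (Nat.card G)) (hp2 : p ≠ 2) (hO : Cfsg.pPrimeCore p G = ⊥) (S : Sylow p G) :
    lowIn (S : Subgroup G) ≤ lowIn (Cfsg.pCore p G) ∧ lowIn (Cfsg.pCore p G) ≤ upIn (Cfsg.pCore p G) ∧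
      upIn (Cfsg.pCore p G) ≤ upIn (S : Subgroup G) := by
  set T := Cfsg.pCore p G
  set R := (S : Subgroup G)
  haveI : T.Normal := Cfsg.pCore_normal p G
  have hTR : T ≤ R := CfsgLib.PCore.pCore_le_sylow S
  have hTp : IsPGroup p T := CfsgLib.PCore.isPGroup_pCore p G
  have key : ∀ n, seqIn R (2 * n) ≤ seqIn T (2 * n) ∧ seqIn T (2 * n + 1) ≤ seqIn R (2 * n + 1) := by
    have half : ∀ n, seqIn R (2 * n) ≤ seqIn T (2 * n) → seqIn T (2 * n + 1) ≤ seqIn R (2 * n + 1) := by
      intro n h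
      rw [seqIn_succ, seqIn_succ]
      exact sSup_le fun A hA => le_stepIn (hA.1.trans hTR) hA.2.1 (h.trans hA.2.2)
    intro n
    induction n with
    | zero =>
      have h0 : seqIn R (2 * 0) ≤ seqIn T (2 * 0) := by rw [mul_zero, seqIn_zero]; exact bot_le
      exact ⟨h0, half 0 h0⟩
    | succ n ih =>
      suffices h : seqIn R (2 * (n + 1)) ≤ seqIn T (2 * (n + 1)) from ⟨h, half _ h⟩
      rw [show 2 * (n + 1) = 2 * n + 1 + 1 from rfl, seqIn_succ R, seqIn_succ T]
      refine sSup_le fun A hA => le_stepIn ?_ hA.2.1 (ih.2.trans hA.2.2)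
      haveI := seqIn_normal T (2 * n + 1)
      have h := (Cfsg.Agent.S1465.result hodd p hp2 (seqIn T (2 * n + 1)) (hTp.to_le (seqIn_le _ _)) {A} ?_).2 hO
        (inf_centralizer_seqIn_le hTp (Nat.succ_pos _))
      · simpa using h
      · rintro B rfl
        exact ⟨hA.2.1, S.2.to_le hA.1, ih.2.trans hA.2.2⟩
  refine ⟨lowIn_le_of fun n => (key n).1.trans (seqIn_even_le_lowIn T n), lowIn_le_upIn T, ?_⟩
  obtain ⟨k, -, hk⟩ := exists_seqIn_eq R
  exact hk ▸ (upIn_le_seqIn_odd T k).trans (key k).2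

theorem centerUp_normal (hodd : Odd (Nat.card G)) (hp2 : p ≠ 2) (hO : Cfsg.pPrimeCore p G = ⊥) (S : Sylow p G) :
    (centerUp (S : Subgroup G)).Normal := by
  set T := Cfsg.pCore p G with hTdef
  set R := (S : Subgroup G) with hR
  haveI : T.Normal := Cfsg.pCore_normal p G
  have hTR : T ≤ R := CfsgLib.PCore.pCore_le_sylow S
  have hTp : IsPGroup p T := CfsgLib.PCore.isPGroup_pCore p G
  obtain ⟨hlow, -, hup⟩ := puig_chain hodd hp2 hO S
  obtain ⟨kT, -, hkT⟩ := exists_seqIn_eq T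
  haveI hupn : (upIn T).Normal := hkT ▸ seqIn_normal T _
  set Y := upIn T ⊓ Subgroup.centralizer (upIn T : Set G) with hY
  haveI : (Subgroup.centralizer (upIn T : Set G)).Normal := Subgroup.normal_centralizer
  haveI hYn : Y.Normal := inferInstanceAs (upIn T ⊓ Subgroup.centralizer (upIn T : Set G)).Normal
  have hTC : T ⊓ Subgroup.centralizer (upIn T : Set G) ≤ upIn T := by
    rw [← hkT]; exact inf_centralizer_seqIn_le hTp (Nat.succ_pos _)
  -- `C(L(T)) ≤ T`
  have hhh : Subgroup.centralizer (T : Set G) ≤ T :=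
    CfsgLib.PCore.hall_higman CfsgLib.PCore.isPSolvable_of_isSolvable hO
  have hCT : Subgroup.centralizer (upIn T : Set G) ≤ T := by
    refine CfsgLib.PCore.le_pCore inferInstance (CfsgLib.PCore.isPGroup_of_forall_coprime _ fun y hy hyp => ?_)
    have h2 : y ∈ Subgroup.centralizer (T : Set G) := by
      refine CfsgLib.CoprimeAction.le_centralizer_of_chain (A := Subgroup.zpowers y)
        (N := T ⊓ Subgroup.centralizer (upIn T : Set G)) ?_ ?_ ?_ (Subgroup.mem_zpowers y)
      · obtain ⟨m, hm⟩ := IsPGroup.iff_card.1 (hTp.to_le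
          (inf_le_left : T ⊓ Subgroup.centralizer (upIn T : Set G) ≤ T))
        rw [Nat.card_zpowers, hm]
        exact hyp.pow_right m
      · refine Subgroup.zpowers_le.2 (Subgroup.mem_centralizer_iff.2 fun w hw => ?_)
        exact Subgroup.mem_centralizer_iff.1 hy w (hTC hw)
      · exact le_trans (Subgroup.commutator_mono le_rfl (Subgroup.zpowers_le.2 hy)) (Subgroup.commutator_le_inf T _)
    obtain ⟨n, hn⟩ := hTp ⟨y, hhh h2⟩
    exact orderOf_eq_one_iff.1 (Nat.eq_one_of_dvd_coprimes (hyp.pow_right n) dvd_rfl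
      (orderOf_dvd_of_pow_eq_one (congrArg Subtype.val hn)))
  have hZY : centerUp R ≤ Y := fun z hz => by
    have h1 : z ∈ Subgroup.centralizer (upIn T : Set G) := Subgroup.centralizer_le hup hz.2
    exact ⟨hTC ⟨hCT h1, h1⟩, h1⟩
  have hYlow : Y ≤ lowIn R := fun y hy => inf_centralizer_lowIn_le S.2
    ⟨hTR (upIn_le T hy.1), Subgroup.centralizer_le (hlow.trans (lowIn_le_upIn T)) hy.2⟩
  set C := Subgroup.centralizer (Y : Set G) with hC
  haveI : C.Normal := Subgroup.normal_centralizer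
  set M := (Cfsg.pCore p (G ⧸ C)).comap (QuotientGroup.mk' C) with hM
  haveI : M.Normal := (Cfsg.pCore_normal p _).comap _
  have hLM : upIn R ≤ M := by
    rw [hM, ← Subgroup.map_le_iff_le_comap, ← stepIn_lowIn R]
    exact (Cfsg.Agent.S1465.result hodd p hp2 Y (hTp.to_le (inf_le_left.trans (upIn_le T))) _ (fun A hA =>
      ⟨hA.2.1, S.2.to_le hA.1, hYlow.trans hA.2.2⟩)).1
  obtain ⟨X, hX⟩ := CfsgLib.Transfer.exists_sylow_map_eq_inf S M
  set XM := (X : Subgroup M).map M.subtype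
  have hXR : XM ≤ R := by rw [show XM = R ⊓ M from hX]; exact inf_le_left
  have hLX : upIn R ≤ XM := by rw [show XM = R ⊓ M from hX]; exact le_inf (upIn_le R) hLM
  have hcu : centerUp XM = centerUp R := by rw [centerUp, centerUp, (eq_of_upIn_le hLX hXR).2]
  rw [← Subgroup.normalizer_eq_top_iff, eq_top_iff, ← (Sylow.normalizer_sup_eq_top X : _ ⊔ M = ⊤)]
  refine sup_le ((normalizer_le_centerUp XM).trans_eq (by rw [hcu])) fun m hm => ?_
  have h1 : QuotientGroup.mk' C m ∈ R.map (QuotientGroup.mk' C) := by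
    rw [hR, ← Sylow.coe_mapSurjective (QuotientGroup.mk'_surjective C) S]
    exact CfsgLib.PCore.pCore_le_sylow _ hm
  obtain ⟨s, hs, hsm⟩ := h1
  have h2 : s⁻¹ * m ∈ C := QuotientGroup.eq.1 hsm
  have hsN : s ∈ Subgroup.normalizer (centerUp R : Set G) := normalizer_le_centerUp R (Subgroup.le_normalizer hs)
  have hcN : s⁻¹ * m ∈ Subgroup.normalizer (centerUp R : Set G) :=
    Subgroup.centralizer_le_normalizer _ (Subgroup.centralizer_le hZY h2)
  simpa using Subgroup.mul_mem _ hsN hcN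

end main

end CfsgLib.PuigCore
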